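import Cfsg.Agent.Lib.Helper90.Sp.Defs2
import Cfsg.Agent.Lib.Helper13.Symp
import Cfsg.Agent.S0271

set_option autoImplicit false

/-! # Sp rows, E00: bridge to the landed transitivity row and to the symplectic transvections -/

namespace Cfsg.Agent.Lib.Helper78.Sp

open Cfsg Cfsg.Geo Matrix Cfsg.Agent.Lib.Helper13.Asch Cfsg.Agent.Lib.Helper90.Sp
open scoped Kronecker MatrixGroups

variable {ι : Type} [Fintype ι] [DecidableEq ι] {F : Type*} [Field F]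

/-- a symplectic matrix as an element of `spGL` -/
theorem exists_spGL_of_mem (m : ℕ) (A : Matrix (Fin m ⊕ Fin m) (Fin m ⊕ Fin m) F)
    (hA : A ∈ Matrix.symplecticGroup (Fin m) F) :
    ∃ g ∈ spGL m F, (g : Matrix (Fin m ⊕ Fin m) (Fin m ⊕ Fin m) F) = A := by
  have hdet : IsUnit A.det := SymplecticGroup.symplectic_det hA
  refine ⟨Matrix.GeneralLinearGroup.mkOfDetNeZero A hdet.ne_zero, ?_, rfl⟩
  intro u v
  exact (Cfsg.Agent.Lib.Helper13.mem_symplecticGroup_iff_preserves A).1 hA u v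

/-- E00a -/
theorem exists_spGL_map (m : ℕ) (v w : Fin m ⊕ Fin m → F) (hv : v ≠ 0) (hw : w ≠ 0) :
    ∃ g ∈ spGL m F, (g : Matrix (Fin m ⊕ Fin m) (Fin m ⊕ Fin m) F) *ᵥ v = w := by
  obtain ⟨A, hA⟩ := Cfsg.Agent.S0271.result m v w hv hw
  obtain ⟨g, hg, hgA⟩ := exists_spGL_of_mem m A.1 A.2
  exact ⟨g, hg, by rw [hgA]; exact hA⟩

/-- E00b -/
theorem exists_spGL_tv (m : ℕ) (v : Fin m ⊕ Fin m → F) (c : F) :
    ∃ g ∈ spGL m F, ∀ x, (g : Matrix (Fin m ⊕ Fin m) (Fin m ⊕ Fin m) F) *ᵥ x =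
      x + (c * sympForm m F x v) • v := by
  obtain ⟨g, hg, hgA⟩ := exists_spGL_of_mem m _ (Cfsg.Agent.Lib.Helper13.sympTransvection_mem v c)
  exact ⟨g, hg, fun x => by rw [hgA, Cfsg.Agent.Lib.Helper13.sympTransvection_mulVec]⟩

/-- E00c -/
theorem eq_inf_of_maximal_sp {m : ℕ} {H M : Subgroup (GL (Fin m ⊕ Fin m) F)}
    (hH : IsMaximalIn (spGL m F) H) (hHM : H ≤ M) (hM : ¬ spGL m F ≤ M) :
    H = M ⊓ spGL m F := by
  rcases hH.2 (M ⊓ spGL m F) (le_inf hHM hH.1.le) inf_le_right with h | h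
  · exact h.symm
  · exact absurd (h ▸ inf_le_left) hM

end Cfsg.Agent.Lib.Helper78.Sp
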