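import Cfsg.Agent.Lib.Helper90.Sp.Defs2
import Cfsg.Agent.Lib.Helper55.Asch.L9e
import Cfsg.Agent.Lib.Helper55.Asch.DecCore
import Cfsg.Agent.S0752

set_option autoImplicit false

/-! # Sp rows, E2: arithmetic of the classes -/

namespace Cfsg.Agent.Lib.Helper78.Sp

open Cfsg Cfsg.Geo Matrix Cfsg.Agent.Lib.Helper13.Asch Cfsg.Agent.Lib.Helper90.Sp
open scoped Kronecker MatrixGroups

variable {ι : Type} [Fintype ι] [DecidableEq ι] {F : Type*} [Field F]

/-- E2a -/
theorem even_finrank_of_nondegenerateOn {f : (ι → F) → (ι → F) → F} (hf : IsSymplecticForm f)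
    (W : Submodule F (ι → F)) (hW : IsNondegenerateOn f W) : Even (Module.finrank F W) := by
  classical
  let B : LinearMap.BilinForm F W :=
    LinearMap.mk₂ F (fun u v : W => f u.1 v.1)
      (fun x y v => hf.bilinear.add_left x.1 y.1 v.1)
      (fun c x v => hf.bilinear.smul_left c x.1 v.1)
      (fun v x y => hf.bilinear.add_right v.1 x.1 y.1)
      (fun c v x => hf.bilinear.smul_right c v.1 x.1)
  have hB : ∀ u v : W, B u v = f u.1 v.1 := fun u v => rfl
  have hA : B.IsAlt := fun v => hf.alternating v.1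
  obtain ⟨m, k, b, -, -, -, h4⟩ := Cfsg.Agent.S0752.result B hA
  have hk : k = 0 := by
    by_contra hne
    have j : Fin k := ⟨0, Nat.pos_of_ne_zero hne⟩
    have hb0 : (b (Sum.inr j)).1 ≠ 0 := fun h => b.ne_zero (Sum.inr j) (Subtype.ext h)
    obtain ⟨x, hxW, hx⟩ := (hW _ (b (Sum.inr j)).2 hb0).2
    exact hx (h4 j ⟨x, hxW⟩)
  subst hk
  have e1 := Module.finrank_eq_card_basis b
  rw [e1]
  simp

/-- the abstract form of E2c -/
theorem two_mul_finrank_dvd {F L V : Type*} [Field F] [Field L] [Algebra F L] [AddCommGroup V]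
    [Module F V] [Module L V] [IsScalarTower F L V] [FiniteDimensional F V]
    (B : LinearMap.BilinForm F V) (hnd : B.Nondegenerate)
    (hsa : ∀ (l : L) (u v : V), B (l • u) v = B u (l • v))
    (halt : ∀ (l : L) (v : V), B (l • v) v = 0) :
    2 * Module.finrank F L ∣ Module.finrank F V := by
  classical
  have hfin : Module.Finite L V := Module.Finite.of_restrictScalars_finite F L V
  have hA : B.IsAlt := fun v => by simpa using halt 1 v
  have hskew : ∀ u v, B u v = - B v u := fun u v => by
    have := hA.neg_eq u v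
    rw [← this, neg_neg]
  let S : Set (Submodule L V) := {W | ∀ u ∈ W, ∀ v ∈ W, B u v = 0}
  have hS : S.Nonempty := ⟨⊥, fun u hu v _ => by
    rw [(Submodule.mem_bot L).1 hu]; simp⟩
  obtain ⟨W, hWS, hWmax⟩ := (wellFounded_gt (α := Submodule L V)).has_min S hS
  have hperp : B.orthogonal (W.restrictScalars F) = W.restrictScalars F := by
    apply le_antisymm
    · intro v hv
      have hv' : ∀ w ∈ W, B w v = 0 := fun w hw => hv w hw
      have hW' : W ⊔ Submodule.span L {v} ∈ S := by
        intro x hx y hy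
        obtain ⟨w, hw, z, hz, rfl⟩ := Submodule.mem_sup.1 hx
        obtain ⟨w', hw', z', hz', rfl⟩ := Submodule.mem_sup.1 hy
        obtain ⟨l, rfl⟩ := Submodule.mem_span_singleton.1 hz
        obtain ⟨l', rfl⟩ := Submodule.mem_span_singleton.1 hz'
        have e1 : B w w' = 0 := hWS w hw w' hw'
        have e2 : B w (l' • v) = 0 := by
          rw [← hsa]; exact hv' _ (W.smul_mem l' hw)
        have e3 : B (l • v) w' = 0 := by
          rw [hskew, ← hsa, hv' _ (W.smul_mem l hw'), neg_zero]
        have e4 : B (l • v) (l' • v) = 0 := by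
          rw [← hsa, smul_smul]; exact halt _ v
        simp only [map_add, LinearMap.add_apply, e1, e2, e3, e4, add_zero]
      have hle : W ≤ W ⊔ Submodule.span L {v} := le_sup_left
      have heq : W ⊔ Submodule.span L {v} = W := by
        by_contra hne
        exact hWmax _ hW' (lt_of_le_of_ne hle (fun h => hne h.symm))
      have : v ∈ W ⊔ Submodule.span L {v} :=
        (le_sup_right : Submodule.span L {v} ≤ _) (Submodule.mem_span_singleton_self v)
      rw [heq] at this
      exact this
    · intro v hv w hw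
      exact hWS w hw v hv
  have h1 := LinearMap.BilinForm.finrank_orthogonal hnd (W.restrictScalars F)
  rw [hperp] at h1
  have h2 : Module.finrank F (W.restrictScalars F) ≤ Module.finrank F V :=
    Submodule.finrank_le _
  have h3 : Module.finrank F (W.restrictScalars F) = Module.finrank F W := rfl
  have h4 : Module.finrank F L * Module.finrank L W = Module.finrank F W :=
    Module.finrank_mul_finrank F L W
  refine ⟨Module.finrank L W, ?_⟩
  rw [mul_assoc, h4, ← h3]
  omega

/-- E2c for a field `L` mapping to the matrix algebra -/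
theorem two_mul_finrank_dvd_card {f : (ι → F) → (ι → F) → F} (hf : IsSymplecticForm f)
    (L : Type*) [Field L] [Algebra F L] (ψ : L →ₐ[F] Matrix ι ι F)
    (hsa : ∀ (l : L) (u v : ι → F), f (ψ l *ᵥ u) v = f u (ψ l *ᵥ v))
    (halt : ∀ (l : L) (v : ι → F), f (ψ l *ᵥ v) v = 0) :
    2 * Module.finrank F L ∣ Fintype.card ι := by
  let _ : Module L (ι → F) := Module.compHom (ι → F)
    (((Matrix.toLinAlgEquiv' : Matrix ι ι F ≃ₐ[F] ((ι → F) →ₗ[F] (ι → F))).toAlgHom.comp ψ).toRingHom :
      L →+* Module.End F (ι → F))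
  have hsmul : ∀ (l : L) (v : ι → F), l • v = ψ l *ᵥ v := fun l v => rfl
  have : IsScalarTower F L (ι → F) := ⟨fun c l v => by
    rw [hsmul, hsmul, map_smul, Matrix.smul_mulVec]⟩
  let B : LinearMap.BilinForm F (ι → F) :=
    LinearMap.mk₂ F f hf.bilinear.add_left hf.bilinear.smul_left hf.bilinear.add_right
      hf.bilinear.smul_right
  have hB : ∀ u v, B u v = f u v := fun u v => rfl
  have hnd : B.Nondegenerate := by
    constructor
    · intro v hv
      by_contra hv0
      obtain ⟨x, hx⟩ := (hf.nondegenerate v hv0).2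
      exact hx (hv x)
    · intro v hv
      by_contra hv0
      obtain ⟨x, hx⟩ := (hf.nondegenerate v hv0).1
      exact hx (hv x)
  have h := two_mul_finrank_dvd (L := L) B hnd
    (fun l u v => by rw [hB, hB, hsmul, hsmul]; exact hsa l u v)
    (fun l v => by rw [hB, hsmul]; exact halt l v)
  rw [Module.finrank_fintype_fun_eq_card] at h
  exact h

/-- E2c -/
theorem two_mul_dvd_of_selfadjoint_field {f : (ι → F) → (ι → F) → F} (hf : IsSymplecticForm f)
    {r : ℕ} (K : Subalgebra F (Matrix ι ι F)) (hK : IsFieldSubalgebra r K)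
    (hsa : IsSelfAdjointFor f K) (halt : ∀ k ∈ K, ∀ v, f (k *ᵥ v) v = 0) :
    2 * r ∣ Fintype.card ι := by
  rcases isEmpty_or_nonempty ι with hι | hι
  · rw [Fintype.card_eq_zero]
    exact dvd_zero _
  have hfield : IsField ↥K :=
    { exists_pair_ne := ⟨0, 1, fun h => zero_ne_one (congrArg Subtype.val h)⟩
      mul_comm := fun x y => Subtype.ext (hK.comm x.1 x.2 y.1 y.2)
      mul_inv_cancel := by
        intro a ha
        obtain ⟨y, hy, hay⟩ := hK.inv a.1 a.2 (fun h => ha (Subtype.ext h))
        exact ⟨⟨y, hy⟩, Subtype.ext hay⟩ }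
  let instF : Field ↥K := hfield.toField
  let instA : Algebra F ↥K := K.algebra
  let ψ : ↥K →ₐ[F] Matrix ι ι F := K.val
  have h := two_mul_finrank_dvd_card hf (↥K) ψ (fun l u v => hsa l.1 l.2 u v)
    (fun l v => halt l.1 l.2 v)
  rw [← hK.finrank_eq]
  exact h

/-- E2d -/
theorem ne_top_of_totallySingular [Nonempty ι] {f : (ι → F) → (ι → F) → F}
    (hf : IsSymplecticForm f) (W : Submodule F (ι → F)) (hW : IsTotallySingularFor f W) :
    W ≠ ⊤ := by
  rintro rfl
  obtain ⟨i⟩ := ‹Nonempty ι›
  have hv : (Pi.single i 1 : ι → F) ≠ 0 := by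
    intro h
    have := congrFun h i
    simp at this
  obtain ⟨x, hx⟩ := (hf.nondegenerate _ hv).1
  exact hx (hW x trivial _ trivial)

/-- E2e -/
theorem card_of_decomp' {t m : ℕ} (D : Fin t → Submodule F (ι → F)) (hD : IsMDecomposition m D) :
    t * m = Fintype.card ι :=
  Cfsg.Agent.Lib.Helper55.Asch.card_of_decomp D hD

/-- E2f -/
theorem subfield_ne_top [Fintype F] (F₀ : Subfield F) {r : ℕ} (hr : r.Prime)
    (h : Fintype.card F = Nat.card F₀ ^ r) : F₀ ≠ ⊤ := by
  rintro rfl
  have h1 : Nat.card (⊤ : Subfield F) = Fintype.card F := by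
    rw [← Nat.card_eq_fintype_card]
    exact Nat.card_congr Subfield.topEquiv.toEquiv
  rw [h1] at h
  have h2 : 1 < Fintype.card F := Fintype.one_lt_card
  have h3 : Fintype.card F ^ 1 < Fintype.card F ^ r := Nat.pow_lt_pow_right h2 hr.one_lt
  rw [pow_one] at h3
  omega

/-- E2g -/
theorem even_of_symplectic {n : ℕ} (f : (Fin n → F) → (Fin n → F) → F) (hf : IsSymplecticForm f) :
    Even n := by
  simpa using Cfsg.Agent.Lib.Helper55.Asch.even_card_of_symplectic f hf

end Cfsg.Agent.Lib.Helper78.Sp
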