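import Cfsg.Agent.Lib.Helper78.Sp.E00

set_option autoImplicit false

/-! # Sp rows, E1a E1b: `Sp` stabilises no proper subspace and no decomposition -/

namespace Cfsg.Agent.Lib.Helper78.Sp

open Cfsg Cfsg.Geo Matrix Cfsg.Agent.Lib.Helper13.Asch Cfsg.Agent.Lib.Helper90.Sp
open scoped Kronecker MatrixGroups

variable {ι : Type} [Fintype ι] [DecidableEq ι] {F : Type*} [Field F]

/-- E1a -/
theorem sp_not_le_stab {m : ℕ} (W : Submodule F (Fin m ⊕ Fin m → F)) (h0 : W ≠ ⊥) (h1 : W ≠ ⊤) :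
    ¬ spGL m F ≤ subspaceStabilizer W := by
  intro hle
  obtain ⟨w, hwW, hw0⟩ := Submodule.exists_mem_ne_zero_of_ne_bot h0
  obtain ⟨v, hv⟩ : ∃ v, v ∉ W := by
    by_contra h
    push Not at h
    exact h1 (eq_top_iff.2 fun x _ => h x)
  have hv0 : v ≠ 0 := by
    rintro rfl
    exact hv W.zero_mem
  obtain ⟨g, hg, hgw⟩ := exists_spGL_map m w v hw0 hv0
  have h2 : (g : Matrix (Fin m ⊕ Fin m) (Fin m ⊕ Fin m) F) *ᵥ w ∈ W := ((hle hg) w).1 hwW
  rw [hgw] at h2
  exact hv h2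

/-- E1b -/
theorem sp_not_le_decomp {m t k : ℕ} (D : Fin t → Submodule F (Fin m ⊕ Fin m → F))
    (hD : IsMDecomposition k D) : ¬ spGL m F ≤ decompositionStabilizer D := by
  intro hle
  have ht := hD.two_le
  let i0 : Fin t := ⟨0, by omega⟩
  let i1 : Fin t := ⟨1, by omega⟩
  have h01 : i1 ≠ i0 := by
    intro h
    have := congrArg Fin.val h
    simp [i0, i1] at this
  have hne : ∀ i, D i ≠ ⊥ := by
    intro i h
    have := hD.finrank_eq i
    rw [h, finrank_bot] at this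
    have := hD.pos
    omega
  obtain ⟨u, huD, hu0⟩ := Submodule.exists_mem_ne_zero_of_ne_bot (hne i0)
  obtain ⟨w, hwD, hw0⟩ := Submodule.exists_mem_ne_zero_of_ne_bot (hne i1)
  set C := ⨆ (j : Fin t) (_ : j ≠ i0), D j with hC
  have hdisj : Disjoint (D i0) C := hD.indep i0
  have huC : u ∉ C := fun h => hu0 ((Submodule.disjoint_def.1 hdisj) u huD h)
  have hwC : w ∈ C := (le_iSup₂_of_le i1 h01 le_rfl : D i1 ≤ C) hwD
  have hz0 : u + w ≠ 0 := by
    intro h
    apply huC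
    have : u = -w := eq_neg_of_add_eq_zero_left h
    rw [this]
    exact C.neg_mem hwC
  obtain ⟨g, hg, hgu⟩ := exists_spGL_map m u (u + w) hu0 hz0
  obtain ⟨σ, hσ⟩ := hle hg
  have h3 : u + w ∈ D (σ i0) := by
    have : Matrix.toLin' (g : Matrix (Fin m ⊕ Fin m) (Fin m ⊕ Fin m) F) u ∈
        (D i0).map (Matrix.toLin' (g : Matrix (Fin m ⊕ Fin m) (Fin m ⊕ Fin m) F)) :=
      Submodule.mem_map_of_mem huD
    rw [hσ i0, Matrix.toLin'_apply, hgu] at this
    exact this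
  by_cases hj : σ i0 = i0
  · rw [hj] at h3
    have hw' : w ∈ D i0 := ((D i0).add_mem_iff_right huD).1 h3
    exact hw0 ((Submodule.disjoint_def.1 hdisj) w hw' hwC)
  · have h4 : u + w ∈ C := (le_iSup₂_of_le (σ i0) hj le_rfl : D (σ i0) ≤ C) h3
    exact huC ((C.add_mem_iff_left hwC).1 h4)

end Cfsg.Agent.Lib.Helper78.Sp
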