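import Cfsg.Agent.Lib.Helper78.Sp.E00
import Cfsg.Agent.Lib.Helper78.Sp.E1a
import Cfsg.Agent.Lib.Helper78.Sp.E2
import Cfsg.Agent.Lib.Helper60.Sp.Main
import Cfsg.Agent.Lib.Helper95.Sp.Y
import Cfsg.Agent.Lib.Helper47.Sp.E1c
import Cfsg.Agent.Lib.Helper47.Sp.E1q
import Cfsg.Agent.Lib.Helper11.Sp.E1d
import Cfsg.Agent.Lib.Helper11.Sp.E1f
import Cfsg.Agent.Lib.Helper99.Sp.E1k
import Cfsg.Agent.Lib.Helper99.Sp.E3c
import Cfsg.Agent.Lib.Helper86.Sp.E3b

set_option autoImplicit false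

/-! # Sp rows, EM: the refined list for a maximal subgroup of `Sp_2m(F)` -/

namespace Cfsg.Agent.Lib.Helper78.Sp

open Cfsg Cfsg.Geo Matrix Cfsg.Agent.Lib.Helper13.Asch Cfsg.Agent.Lib.Helper90.Sp
open scoped Kronecker MatrixGroups

variable {ι : Type} [Fintype ι] [DecidableEq ι] {F : Type*} [Field F]

/-- EM -/
theorem sp_max_cases [Fintype F] {m : ℕ} (hm : 2 ≤ m) {H : Subgroup (GL (Fin m ⊕ Fin m) F)}
    (hH : IsMaximalIn (spGL m F) H) : SpMaxCls m H ∨ InSymplecticResidualClass H := by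
  have hcard : Fintype.card (Fin m ⊕ Fin m) = 2 * m := by
    rw [Fintype.card_sum, Fintype.card_fin]; ring
  have hne : Nonempty (Fin m ⊕ Fin m) := ⟨Sum.inl ⟨0, by omega⟩⟩
  have hf : IsSymplecticForm (sympForm m F) := Cfsg.Agent.Lib.Helper95.Sp.sympForm_isSymplectic m
  have hHS : H ≤ spGL m F := hH.1.le
  have hq : 1 < Fintype.card F := Fintype.one_lt_card
  -- targets
  have TD : ∀ (t k : ℕ) (D : Fin t → Submodule F (Fin m ⊕ Fin m → F)),
      IsNondegenerateMDecomposition (sympForm m F) k D → ¬ (Fintype.card F = 2 ∧ k = 2) →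
      H ≤ decompositionStabilizer D → SpMaxCls m H := fun t k D hD hk h => by
    have htk : t * k = 2 * m := by rw [← hcard]; exact card_of_decomp' D hD.decomp
    have hev : Even k := by
      have h0 := even_finrank_of_nondegenerateOn hf (D ⟨0, by have := hD.decomp.two_le; omega⟩)
        (hD.nondegenerate _)
      rwa [hD.decomp.finrank_eq] at h0
    exact Or.inr (Or.inr (Or.inl ⟨t, k, D, hD, htk, hev, hk,
      eq_inf_of_maximal_sp hH h (sp_not_le_decomp D hD.decomp)⟩))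
  have TQ : ∀ Q : (Fin m ⊕ Fin m → F) → F, ¬ Odd (Fintype.card F) →
      IsNondegenerateQuadraticForm Q → (∀ u v, QuadraticMap.polar Q u v = sympForm m F u v) →
      H ≤ quadSimilarityGroup Q → SpMaxCls m H := fun Q ho hQ hpol h =>
    Or.inr (Or.inr (Or.inr (Or.inr (Or.inr (Or.inr (Or.inl ⟨Q, ho, hQ, hpol,
      eq_inf_of_maximal_sp hH h (Cfsg.Agent.Lib.Helper47.Sp.sp_not_le_quad hm Q hQ hpol)⟩))))))
  rcases Cfsg.Agent.Lib.Helper60.Sp.sp_main (by rw [hcard]; omega) hf H (Cfsg.Agent.Lib.Helper95.Sp.fixes_of_le_spGL hHS) with hc | hres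
  swap
  · exact Or.inr hres
  left
  rcases hc with ⟨W, h0, h1, h⟩ | ⟨W, h0, h1, h2, h⟩ | ⟨t, k, D, hD, h⟩ | ⟨k, D, ho, hD, hs, h⟩ |
    ⟨F₀, r, P, ζ, hr, hc, hζ, hf', h⟩ | ⟨R, p, k, h1, h2, h3, hp, hpo, hFp, hR, hZ, hmin, hk, h⟩ |
    ⟨Q, ho, hQ, hpol, h⟩ | ⟨r, K, hr, hK, hsa, halt, h⟩ | ⟨K, ho, hK, hac, hnsa, h⟩ |
    ⟨a, b, e, P, f₁, f₂, ho, hb, h1, h2, h3, h⟩ | ⟨k, t, e, P, f₁, ho, hto, ht, hx, h1, h2, h⟩
  · exact Or.inl ⟨W, h0, h1, eq_inf_of_maximal_sp hH h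
      (sp_not_le_stab W h0 (ne_top_of_totallySingular hf W h1))⟩
  · refine Or.inr (Or.inl ⟨W, h0, h1, by rw [hcard] at h2; omega, eq_inf_of_maximal_sp hH h
      (sp_not_le_stab W h0 ?_)⟩)
    rintro rfl
    rw [finrank_top, Module.finrank_fintype_fun_eq_card] at h2
    omega
  · by_cases hk2 : Fintype.card F = 2 ∧ k = 2
    · obtain ⟨hq2, rfl⟩ := hk2
      obtain ⟨Q, hQ, hpol, hle⟩ := Cfsg.Agent.Lib.Helper86.Sp.sp_blocks_two hq2 D hD
      exact TQ Q (by rw [hq2]; decide) hQ hpol ((le_inf h hHS).trans hle)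
    · exact TD t k D hD hk2 h
  · have hkm : k = m := by
      have := card_of_decomp' D hD
      rw [hcard] at this
      omega
    subst hkm
    exact Or.inr (Or.inr (Or.inr (Or.inl ⟨D, ho, hD, hs,
      eq_inf_of_maximal_sp hH h (sp_not_le_decomp D hD)⟩)))
  · exact Or.inr (Or.inr (Or.inr (Or.inr (Or.inl ⟨F₀, r, P, ζ, hr, hc, hζ, hf',
      eq_inf_of_maximal_sp hH h (Cfsg.Agent.Lib.Helper11.Sp.sp_not_le_subfield (by omega) F₀ (subfield_ne_top F₀ hr hc) P)⟩))))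
  · exact Or.inr (Or.inr (Or.inr (Or.inr (Or.inr (Or.inl
      ⟨R, p, k, h1, h2, h3, hp, hpo, hFp, hR, hZ, hmin, by rw [← hcard]; exact hk,
      eq_inf_of_maximal_sp hH h (Cfsg.Agent.Lib.Helper11.Sp.sp_not_le_c6 hm (by rw [hFp]; exact hpo) R h1.pGroup h2 h3)⟩)))))
  · exact TQ Q ho hQ hpol h
  · have hrm : r ∣ m := by
      have := two_mul_dvd_of_selfadjoint_field hf K hK hsa halt
      rw [hcard] at this
      exact Nat.dvd_of_mul_dvd_mul_left (by norm_num) this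
    exact Or.inr (Or.inr (Or.inr (Or.inr (Or.inr (Or.inr (Or.inr (Or.inl
      ⟨r, K, hr, hrm, hK, hsa, halt,
      eq_inf_of_maximal_sp hH h (Cfsg.Agent.Lib.Helper47.Sp.sp_not_le_field hm hr K hK)⟩)))))))
  · exact Or.inr (Or.inr (Or.inr (Or.inr (Or.inr (Or.inr (Or.inr (Or.inr (Or.inl
      ⟨K, ho, hK, hac, hnsa,
      eq_inf_of_maximal_sp hH h (Cfsg.Agent.Lib.Helper47.Sp.sp_not_le_field hm Nat.prime_two K hK)⟩))))))))
  · have hab : a * b = 2 * m := by
      have := Fintype.card_congr e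
      rw [hcard] at this
      simpa using this.symm
    have hae : Even a := even_of_symplectic f₁ h1
    have ha2 : 2 ≤ a := by
      obtain ⟨c, hc⟩ := hae
      rcases Nat.eq_zero_or_pos c with rfl | hc0
      · subst hc
        simp at hab
        omega
      · omega
    by_cases hb3 : Fintype.card F = 3 ∧ b = 3
    · obtain ⟨hq3, rfl⟩ := hb3
      obtain ⟨D, hD, hle⟩ := Cfsg.Agent.Lib.Helper99.Sp.sp_tensor_three hq3 (by omega) e P f₁ f₂ h1 h2 h3
      exact TD 3 a D hD (by omega) ((le_inf h hHS).trans hle)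
    · exact Or.inr (Or.inr (Or.inr (Or.inr (Or.inr (Or.inr (Or.inr (Or.inr (Or.inr (Or.inl
        ⟨a, b, e, P, f₁, f₂, ho, hb, hae, hab, hb3, h1, h2, h3,
        eq_inf_of_maximal_sp hH h (Cfsg.Agent.Lib.Helper11.Sp.sp_not_le_tensor ha2 (by omega) e P)⟩)))))))))
  · have hkt : k ^ t = 2 * m := by
      have := Fintype.card_congr e
      rw [hcard] at this
      simpa using this.symm
    have hke : Even k := even_of_symplectic f₁ h1
    have hk2 : 2 ≤ k := by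
      obtain ⟨c, hc⟩ := hke
      rcases Nat.eq_zero_or_pos c with rfl | hc0
      · subst hc
        rw [zero_add, zero_pow (by omega)] at hkt
        omega
      · omega
    exact Or.inr (Or.inr (Or.inr (Or.inr (Or.inr (Or.inr (Or.inr (Or.inr (Or.inr (Or.inr
        ⟨k, t, e, P, f₁, ho, hto, ht, hkt, hx, h1, h2,
        eq_inf_of_maximal_sp hH h (Cfsg.Agent.Lib.Helper99.Sp.sp_not_le_wreath hk2 (by omega) e P)⟩)))))))))

end Cfsg.Agent.Lib.Helper78.Sp
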